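import Mathlib
import Cfsg.Agent.Core.Fitting
import Cfsg.Agent.Core.Coprime2
import Cfsg.Agent.Asch.Linear

/-!
# Fixed spaces of elements of quasi-primitive solvable linear groups
-/

set_option autoImplicit false

namespace Cfsg.Agent.Fix

open Cfsg Module Subgroup
open scoped commutatorElement

section Lin

variable {k G V : Type*} [Field k] [Group G] [AddCommGroup V] [Module k V]
  (ρ : Representation k G V)

/-- The `c`-eigenspace of `ρ g`. -/
def eg (g : G) (c : k) : Submodule k V := End.eigenspace (ρ g) c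

variable {ρ}

theorem mem_eg {g : G} {c : k} {v : V} : v ∈ eg ρ g c ↔ ρ g v = c • v := End.mem_eigenspace_iff

theorem mem_eg_one {g : G} {v : V} : v ∈ eg ρ g 1 ↔ ρ g v = v := by rw [mem_eg, one_smul]

theorem rho_mul (a b : G) (v : V) : ρ (a * b) v = ρ a (ρ b v) := by rw [map_mul]; rfl

theorem eg_conj (e g : G) (c : k) : eg ρ (e * g * e⁻¹) c = (eg ρ g c).map (ρ e) := by
  ext v
  rw [Submodule.mem_map]
  constructor
  · intro h
    refine ⟨ρ e⁻¹ v, mem_eg.2 ?_, ρ.self_inv_apply e v⟩
    rw [← map_smul, ← mem_eg.1 h, ← rho_mul, ← rho_mul]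
    congr 2
    group
  · rintro ⟨w, hw, rfl⟩
    rw [mem_eg, rho_mul, rho_mul, ρ.inv_self_apply, mem_eg.1 hw, map_smul]

theorem rho_inj (e : G) : Function.Injective (ρ e) := fun a b h => by
  rw [← ρ.inv_self_apply e a, h, ρ.inv_self_apply]

theorem finrank_map_rho (e : G) (W : Submodule k V) : finrank k (W.map (ρ e)) = finrank k W :=
  (LinearEquiv.finrank_eq (Submodule.equivMapOfInjective _ (rho_inj e) W)).symm

theorem finrank_eg_conj (e g : G) (c : k) :
    finrank k (eg ρ (e * g * e⁻¹) c) = finrank k (eg ρ g c) := by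
  rw [eg_conj, finrank_map_rho]

theorem eg_inf_le {g h : G} {c : k} {v : V} (h1 : v ∈ eg ρ g c) (h2 : v ∈ eg ρ h c) :
    ρ (h * g⁻¹) v = v := by
  have h3 : ρ h (ρ g⁻¹ v) = ρ g (ρ g⁻¹ v) := by
    by_cases hc : c = 0
    · have : v = 0 := rho_inj g (by rw [mem_eg.1 h1, hc, zero_smul, map_zero])
      rw [this, map_zero, map_zero, map_zero]
    · have : ρ g⁻¹ v = c⁻¹ • v := by
        conv_lhs => rw [← inv_smul_smul₀ hc v, ← mem_eg.1 h1, map_smul, ρ.inv_self_apply]
      rw [this, map_smul, map_smul, mem_eg.1 h1, mem_eg.1 h2]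
  rw [rho_mul, h3, ρ.self_inv_apply]

variable [FiniteDimensional k V]

theorem two_mul_le {A B C : Submodule k V} (h : finrank k B = finrank k A) (hC : A ⊓ B ≤ C) :
    2 * finrank k A ≤ finrank k V + finrank k C := by
  have h1 := Submodule.finrank_sup_add_finrank_inf_eq A B
  have h2 := Submodule.finrank_le (A ⊔ B)
  have h3 := Submodule.finrank_mono hC
  omega

theorem two_mul_eg_le (e g : G) (c : k) :
    2 * finrank k (eg ρ g c) ≤ finrank k V + finrank k (eg ρ ⁅e, g⁆ 1) :=
  two_mul_le (finrank_eg_conj e g c) fun _ hv => mem_eg_one.2 (eg_inf_le hv.1 hv.2)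

end Lin

section Grp

variable {G : Type*} [Group G] [Finite G]

theorem exists_comm_abelian {F : Subgroup G} [F.Normal] (hF : Group.IsNilpotent F) {y : G}
    (hy : y ∈ F) (N : Subgroup G) : N.Normal → N ≤ F → y ∉ centralizer (N : Set G) →
    ∃ A : Subgroup G, A.Normal ∧ IsMulCommutative A ∧ ∃ f : G, ⁅f, y⁆ ≠ 1 ∧ ⁅f, y⁆ ∈ A := by
  induction N using WellFoundedLT.induction with
  | ind N ih =>
  intro hN hNF hyN
  have hne : N ≠ ⊥ := by
    rintro rfl
    exact hyN fun g hg => by rw [mem_bot.1 hg, one_mul, mul_one]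
  have hlt := Core.commutator_lt_of_nilpotent hF hNF le_rfl le_normalizer_of_normal hne
  by_cases h : y ∈ centralizer ((⁅N, F⁆ : Subgroup G) : Set G)
  · have h1 : normalClosure {y} ≤ centralizer ((⁅N, F⁆ : Subgroup G) : Set G) ⊓ F :=
      normalClosure_le_normal (by rintro _ rfl; exact ⟨h, hy⟩)
    refine ⟨⁅N, normalClosure {y}⁆, inferInstance, ?_, ?_⟩
    · refine le_centralizer_iff_isMulCommutative.1 ((commutator_le_right _ _).trans
        ((h1.trans inf_le_left).trans (centralizer_le (commutator_mono le_rfl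
          (h1.trans inf_le_right)))))
    · by_contra hc
      push Not at hc
      refine hyN fun f hf => commutatorElement_eq_one_iff_mul_comm.1 (by_contra fun h2 => ?_)
      exact hc f h2 (commutator_mem_commutator hf (subset_normalClosure rfl))
  · exact ih _ hlt inferInstance (hlt.le.trans hNF) h

variable {k V : Type*} [Field k] [AddCommGroup V] [Module k V] [FiniteDimensional k V]
  {ρ : Representation k G V}

theorem half_of_mem (h : ∀ A : Subgroup G, A.Normal → IsMulCommutative A → ∀ a ∈ A, a ≠ 1 →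
    eg ρ a 1 = ⊥) {F : Subgroup G} [F.Normal] (hF : Group.IsNilpotent F) {y : G} (hy : y ∈ F)
    (h1 : y ≠ 1) : 2 * finrank k (eg ρ y 1) ≤ finrank k V := by
  by_cases hc : y ∈ centralizer (F : Set G)
  · rw [h (F ⊓ centralizer (F : Set G)) inferInstance (le_centralizer_iff_isMulCommutative.1
      (inf_le_right.trans (centralizer_le (inf_le_left : F ⊓ _ ≤ F)))) y ⟨hy, hc⟩ h1, finrank_bot]
    omega
  · obtain ⟨A, a1, a2, f, f1, f2⟩ := exists_comm_abelian hF hy F inferInstance le_rfl hc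
    have := two_mul_eg_le (ρ := ρ) f y 1
    rwa [h A a1 a2 _ f2 f1, finrank_bot] at this

theorem quarter [Group.IsSolvable G] (h : ∀ A : Subgroup G, A.Normal → IsMulCommutative A →
    ∀ a ∈ A, a ≠ 1 → eg ρ a 1 = ⊥) {g : G} (h1 : g ≠ 1) :
    4 * finrank k (eg ρ g 1) ≤ 3 * finrank k V := by
  have := Core.fitting_normal (G := G)
  by_cases hc : g ∈ centralizer (fittingSubgroup G : Set G)
  · have := half_of_mem h Core.fitting_nilpotent (Core.centralizer_fitting_le hc) h1
    omega
  · obtain ⟨e, he, h2⟩ : ∃ e ∈ fittingSubgroup G, ⁅e, g⁆ ≠ 1 := by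
      by_contra h3
      push Not at h3
      exact hc fun e he => commutatorElement_eq_one_iff_mul_comm.1 (h3 e he)
    have h3 := half_of_mem h Core.fitting_nilpotent
      (commutator_le_left _ ⊤ (commutator_mem_commutator he (mem_top g))) h2
    have h4 := two_mul_eg_le (ρ := ρ) e g 1
    omega

end Grp

section Mat

open Cfsg.Geo Asch Matrix

variable {ι : Type} [Fintype ι] [DecidableEq ι] {F : Type*} [Field F]

/-- The natural representation of a matrix group. -/
noncomputable def natRep (G : Subgroup (GL ι F)) : Representation F G (ι → F) :=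
  (Matrix.toLinAlgEquiv' : Matrix ι ι F ≃ₐ[F] _).toMonoidHom.comp
    ((Units.coeHom _).comp G.subtype)

theorem natRep_apply (G : Subgroup (GL ι F)) (g : G) (v : ι → F) :
    natRep G g v = g.1.1 *ᵥ v := rfl

theorem natRep_eq (G : Subgroup (GL ι F)) (g : G) : natRep G g = toLin' g.1.1 := rfl

theorem prim_bound [Fintype F] {G : Subgroup (GL ι F)} (hsol : Group.IsSolvable G)
    (hirr : ActsIrreducibly (matrixSet G))
    (hprim : ∀ (m t : ℕ) (D : Fin t → Submodule F (ι → F)), 2 ≤ t → IsMDecomposition m D →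
      ¬ G ≤ decompositionStabilizer D) {g : GL ι F} (hg : g ∈ G) (hg1 : g ≠ 1) :
    4 * finrank F (End.eigenspace (toLin' g.1) 1) ≤ 3 * Fintype.card ι := by
  have hne : Nonempty ι := by
    by_contra h
    rw [not_nonempty_iff] at h
    exact hg1 (Units.ext (Subsingleton.elim _ _))
  have key := quarter (ρ := natRep G) (g := ⟨g, hg⟩) ?_ fun e => hg1 (congrArg Subtype.val e)
  · rwa [finrank_fintype_fun_eq_card] at key
  intro A hA hc a ha ha1
  have hc' := commSub_of_abelian (A := A.map G.subtype) (by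
    rintro _ ⟨x, hx, rfl⟩ _ ⟨y, hy, rfl⟩
    exact congrArg (fun z : A => (z.1 : GL ι F)) (hc.is_comm.comm ⟨x, hx⟩ ⟨y, hy⟩))
  have hn : Nrm G (A.map G.subtype) := by
    rintro x hx _ ⟨y, hy, rfl⟩
    exact ⟨_, hA.conj_mem y hy ⟨x, hx⟩, rfl⟩
  rcases comm_dichotomy (irr_iff.2 hirr) hc' hn.inv_spanA with hi | ⟨T, hT, h2, -⟩
  · obtain ⟨y, hy, e⟩ := hi (a.1.1 - 1) (Subalgebra.sub_mem _
      (coe_mem_spanA (N := A.map G.subtype) ⟨a, ha, rfl⟩) (Subalgebra.one_mem _))
      (fun e => ha1 (Subtype.ext (Units.ext (sub_eq_zero.1 e))))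
    rw [eq_bot_iff]
    intro v hv
    have h3 : (a.1.1 - 1) *ᵥ v = 0 := by
      rw [sub_mulVec, one_mulVec, ← natRep_apply, mem_eg_one.1 hv, sub_self]
    rw [Submodule.mem_bot, ← one_mulVec v, ← mul_eq_one_comm.1 e, ← mulVec_mulVec, h3, mulVec_zero]
  · obtain ⟨m, h1, h3⟩ := hT.decomp (irr_iff.2 hirr) h2
    exact absurd h3 (hprim m _ _ h2 h1)

end Mat

end Cfsg.Agent.Fix
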